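/-
Minimal counterexample to "all two-generated subgroups solvable implies solvable": local structure
for a prime `p ≥ 5`, and cyclicity of the Sylow `p`-subgroups.
-/
import Cfsg.Agent.Lib.Fla.Stab
import Cfsg.Agent.Lib.Loc.NPC
import Cfsg.Agent.Lib.Zas.Burn
import Cfsg.Agent.Lib.G.GenCent
import Cfsg.Agent.Lib.G.OddP

set_option autoImplicit false
set_option linter.unusedSectionVars false
set_option linter.style.haveILetI false
set_option linter.unusedVariables false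

namespace CA.Fla

open Cfsg Subgroup CA CA.Loc

structure Hyp (G : Type*) [Group G] : Prop where
  simple : IsSimpleGroup G
  nsol : ¬ Group.IsSolvable G
  two : ∀ a b : G, Group.IsSolvable ↥(zpowers a ⊔ zpowers b)
  prop : ∀ H : Subgroup G, H ≠ ⊤ → Group.IsSolvable H

variable {G : Type*} [Group G] [Finite G] {p : ℕ} [hp : Fact p.Prime]
  {A B H K L M P R S T X a b c : Subgroup G} {x y z g d w : G}

/-- In a solvable group with cyclic Sylow `p`-subgroups, `O_{p'}` is transitive on subgroups of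
order `p`. -/
theorem exists_cj_of_cyclic (hs : Group.IsSolvable H) (hS : SylowIn p S H) (hc : IsCyclic S)
    (ha : Elem p 1 a H) (hb : Elem p 1 b H) : ∃ k ∈ piCoreOf {p}ᶜ H, b = cj k a := by
  have h1 : PLen1 p H := plen1_of_le_core2 hp.out hS (by
    have := center_le_core2 hs hS
    rwa [center_eq_self_of_abelian (abelian_of_cyclic hc)] at this)
  have aux : ∀ a, Elem p 1 a H → ∃ k ∈ piCoreOf {p}ᶜ H, a = cj k (omega1 p S) := fun a ha => by
    obtain ⟨g, hg, h⟩ := hS.exists_le_cj (ha.isPGroup.piGrp hp.out) ha.le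
    obtain ⟨k, hk, n, hn, rfl⟩ := h1.exists_mul hp.out hS g hg
    rw [cj_mul, cj_eq_of_mem_normalizer hn.2, le_cj_iff] at h
    exact ⟨k, hk, cj_eq_iff.1 (((ha.cj k⁻¹).of_le h).eq_omega1_of_isCyclic hc) |>.trans (by rw [inv_inv])⟩
  obtain ⟨k, hk, rfl⟩ := aux a ha
  obtain ⟨l, hl, rfl⟩ := aux b hb
  exact ⟨l * k⁻¹, mul_mem hl (inv_mem hk), by rw [cj_cj, inv_mul_cancel_right]⟩

theorem reg_of_norm (hd : d ^ p = 1) (hn : g ∈ 𝐍(zpowers d)) (h1 : PiElt {p}ᶜ g)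
    (h2 : PiElt {p}ᶜ (g * d)) (k : ℤ) : PiElt {p}ᶜ (g * d ^ k) := by
  have hd' : PiElt {p} d := piElt_of_pow_eq_one ((piNum_prime (π := {p}) hp.out).2 rfl) hd
  by_cases hd1 : d = 1
  · simpa [hd1] using h1
  by_contra h
  have hu : constt {p} (g * d ^ k) ≠ 1 := fun e => h (constt_eq_one_iff.1 e)
  have hn' : zpowers g ≤ 𝐍(zpowers d) := zpowers_le.2 hn
  have h3 := (hall_of_sup_left (Or.inl hn') (piGrp_zpowers.2 hd') (piGrp_zpowers.2 h1)).mem_of_normal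
    (sup_le le_normalizer hn') (constt_mem {p} (mul_mem (mem_sup_right (mem_zpowers g))
      (mem_sup_left (zpow_mem (mem_zpowers d) k)))) (constt_piElt _ _)
  have h4 := eq_zpowers_of_prime_card (by rw [Nat.card_zpowers, orderOf_eq_prime hd hd1]; exact hp.out)
    h3 hu
  have h5 : g * d ^ k ∈ 𝐂[d] := by
    rw [← cent_zpowers, h4, cent_zpowers]
    exact cent1_le_cent1_constt _ _ (self_mem_cent1 _)
  have h6 : g ∈ 𝐂[d] := by
    simpa using mul_mem h5 (inv_mem (zpow_mem (self_mem_cent1 d) k))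
  have h7 := mem_cent1_iff.1 h6
  exact hd1 ((constt_unique hd' h1 h7.symm h7.symm).symm.trans (constt_eq_one h2))

theorem piElt_qel_iff {π : Set ℕ} (hK : PiGrp π K) (hx : x ∈ 𝐍(K)) : PiElt π (qel K x) ↔ PiElt π x := by
  rw [← piGrp_zpowers, ← quo_zpowers hx, piGrp_quo_iff (zpowers_le.2 hx) hK, piGrp_zpowers]

namespace Hyp

variable (h : Hyp G)
include h

omit [Finite G] in
theorem ne_top (hs : Group.IsSolvable H) : H ≠ ⊤ := by
  rintro rfl
  exact h.nsol (solvable_top_iff.1 hs)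

omit [Finite G] in
theorem norm_ne_top (h1 : K ≠ ⊥) (h2 : K ≠ ⊤) : 𝐍(K) ≠ ⊤ := fun e => by
  haveI := h.simple
  exact ((normal_of_top_le_norm e.ge).eq_bot_or_eq_top).elim h1 h2

omit [Finite G] in
theorem norm_sol (h1 : K ≠ ⊥) (h2 : Group.IsSolvable K) : Group.IsSolvable 𝐍(K) :=
  h.prop _ (h.norm_ne_top h1 (h.ne_top h2))

omit [Finite G] in
theorem cent1_sol (hz : z ≠ 1) : Group.IsSolvable 𝐂[z] := by
  rw [← cent_zpowers]
  exact solvable_of_le (h.norm_sol (zpowers_ne_bot.2 hz) (solvable_of_abelian (abelian_zpowers z)))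
    (centralizer_le_normalizer _)

theorem core_cent1 (hz : z ≠ 1) (hz' : PiElt {p} z) : piCoreOf {p}ᶜ 𝐂[z] = ⊥ := by
  let E : Subgroup G :=
    { carrier := {e | ∀ g, PiElt {p}ᶜ g → PiElt {p}ᶜ (e * g)}
      mul_mem' := fun ha hb g hg => by rw [mul_assoc]; exact ha _ (hb g hg)
      one_mem' := fun g hg => by rwa [one_mul]
      inv_mem' := fun {e} he => by
        have h1 : ∀ n : ℕ, ∀ g, PiElt {p}ᶜ g → PiElt {p}ᶜ (e ^ n * g) := fun n => by
          induction n with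
          | zero => intro g hg; rwa [pow_zero, one_mul]
          | succ n ih => intro g hg; rw [pow_succ', mul_assoc]; exact he _ (ih g hg)
        have h2 : e⁻¹ = e ^ (orderOf e - 1) := by
          rw [inv_eq_iff_mul_eq_one, ← pow_succ', Nat.sub_add_cancel (orderOf_pos e), pow_orderOf_eq_one]
        rw [h2]
        exact h1 _ }
  have hE : E.Normal := ⟨fun e he n g hg => by
    have h1 := he (n⁻¹ * g * n⁻¹⁻¹) (by rwa [PiElt, orderOf_conj'])
    rw [PiElt, ← orderOf_conj' n] at h1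
    convert h1 using 1
    rw [PiElt]
    congr 2
    group⟩
  haveI := h.simple
  rcases hE.eq_bot_or_eq_top with h1 | h1
  · rw [eq_bot_iff, ← h1]
    intro e he g hg
    have he' := (piCoreOf_piGrp _ _).piElt he
    have hc := mem_cent1_iff.1 (piCoreOf_le _ _ he)
    set H := zpowers (z * e) ⊔ zpowers g
    have hze : z * e ∈ H := mem_sup_left (mem_zpowers _)
    have hzH : z ∈ H := constt_unique hz' he' hc.symm rfl ▸ constt_mem {p} hze
    have heH : e ∈ H := by simpa using mul_mem (inv_mem hzH) hze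
    have hgH : g ∈ H := mem_sup_right (mem_zpowers _)
    have h2 : e ∈ piCoreOf {p}ᶜ H :=
      piCoreOf_cent_le (h.two _ _) (zpowers_le.2 hzH) (piGrp_zpowers.2 hz')
        (piCoreOf_inf_le _ (inf_le_right.trans (cent_zpowers z).le)
          ⟨he, heH, (cent_zpowers z).ge (piCoreOf_le _ _ he)⟩)
    exact ((piCoreOf_piGrp _ H).sup (piGrp_zpowers.2 hg)
      (Or.inl ((zpowers_le.2 hgH).trans (piCoreOf_norm _ _)))).piElt
        (mul_mem (mem_sup_left h2) (mem_sup_right (mem_zpowers g)))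
  · have h2 : z ∈ E := h1.ge (mem_top z)
    exact absurd (hz'.eq_one (by simpa using h2 1 (by simp))) hz

theorem core_norm (h1 : R ≠ ⊥) (hR : PiGrp {p} R) : piCoreOf {p}ᶜ 𝐍(R) = ⊥ := by
  obtain ⟨z, hz, hz1⟩ := exists_ne_one_mem' (center_ne_bot_pgroup (hR.isPGroup hp.out) h1)
  have h2 := piCoreOf_norm_eq_piCoreOf_cent (M := ⊤) le_top hR
  have h3 := piCoreOf_cent_le (h.cent1_sol hz1) (mem_cent_iff_le_cent1.1 hz.2) hR
  rw [top_inf_eq, top_inf_eq] at h2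
  rw [inf_eq_right.2 (cent_le_cent1 hz.1), h.core_cent1 hz1 (hR.piElt hz.1)] at h3
  exact h2.trans (le_bot_iff.1 h3)

omit hp in
theorem exists_prime : ∃ p : ℕ, p.Prime ∧ 5 ≤ p ∧ p ∣ Nat.card G := by
  by_contra! hn
  haveI := h.simple
  haveI := Fact.mk Nat.prime_three
  have hG : _root_.commutator G = ⊤ := (Normal.eq_bot_or_eq_top inferInstance).resolve_left fun e =>
    h.nsol (solvable_top_iff.1 (solvable_of_abelian (abelian_iff_der.2 (der_top.trans e))))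
  have h23 : ∀ q : ℕ, q.Prime → q ∣ Nat.card G → q ≠ 3 → q = 2 := fun q hq hd h3 => by
    have h4 : ¬ 5 ≤ q := fun e => hn q hq e hd
    have := hq.two_le
    have h5 : q ≠ 4 := by rintro rfl; norm_num at hq
    omega
  obtain ⟨P, hP⟩ := exists_sylowIn 3 (⊤ : Subgroup G)
  by_cases h1 : P = ⊥
  · refine h.nsol (solvable_top_iff.1 (PiGrp.solvable (p := 2) fun q hq hd => ?_))
    refine h23 q hq (by rwa [card_top] at hd) ?_
    rintro rfl
    exact hP.ne_bot hq hd h1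
  obtain ⟨z, hz, hz1⟩ := exists_ne_one_mem' (center_ne_bot_pgroup (hP.isPGroup Nat.prime_three) h1)
  have h2 : PiNum {2} (𝐂[z]).index := fun q hq hd => by
    refine h23 q hq (hd.trans (index_dvd_card _)) ?_
    rintro rfl
    exact (hP.piNum_relIndex_of_le (mem_cent_iff_le_cent1.1 hz.2)).not_dvd_of_compl hq rfl
      (by rwa [relIndex_top_right])
  obtain ⟨k, hk⟩ := (piNum_singleton_iff Nat.prime_two index_ne_zero_of_finite).1 h2
  exact Zas.burnside_class hG hz1 Nat.prime_two hk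

theorem norm_le_zj (h5 : 5 ≤ p) (h1 : R ≠ ⊥) (hR : PiGrp {p} R) (hT : SylowIn p T 𝐍(R)) :
    𝐍(R) ≤ 𝐍(𝐙(Je p T)) :=
  zj_core5 h5 (h.norm_sol h1 hR.solvable) (h.core_norm h1 hR) hT

omit h in
theorem zj_ne_bot (hT : PiGrp {p} T) (h1 : T ≠ ⊥) : 𝐙(Je p T) ≠ ⊥ :=
  center_ne_bot_pgroup ((hT.of_le (Je_le p T)).isPGroup hp.out) (Je_ne_bot (hT.isPGroup hp.out) h1)

theorem se_aux (h5 : 5 ≤ p) (hP : SylowIn p P ⊤) (hM : M = 𝐍(𝐙(Je p P))) (n : ℕ) :
    ∀ R T : Subgroup G, R ≠ ⊥ → PiGrp {p} R → R ≤ M → SylowIn p T (M ⊓ 𝐍(R)) →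
      Nat.card P < Nat.card T + n → 𝐍(R) ≤ M := by
  induction n with
  | zero => intro R T _ _ _ hT hc; exact absurd (hP.card_le hT.piGrp le_top) (by omega)
  | succ n ih =>
  intro R T h1 hR hRM hT hc
  have hPM : SylowIn p P M :=
    hP.of_le (hM ▸ le_normalizer.trans (norms_center (norm_le_norm_Je P))) le_top
  have hRT : R ≤ T := hT.normal_le ⟨le_inf hRM le_normalizer, inf_le_right⟩ hR
  have hTM : T ≤ M := hT.le.trans inf_le_left
  by_cases hS : SylowIn p T M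
  · obtain ⟨m, hm, e⟩ := hS.exists_cj hPM
    have h2 := h.norm_le_zj h5 (R := cj m R) (T := P) (by simpa using h1) (hR.cj m)
      (hP.of_le (by rw [e, ← cj_normalizer]; exact cj_mono _ (hT.le.trans inf_le_right)) le_top)
    rw [← hM, ← cj_normalizer, cj_le_iff, cj_eq_of_mem (inv_mem hm)] at h2
    exact h2
  obtain ⟨Q, hQ, hlt⟩ := exists_lt_of_not_sylowIn hT.piGrp hTM hS
  have h2 := lt_inf_normalizer_pgroup (hQ.isPGroup hp.out) hlt
  have nZ : 𝐍(T) ≤ 𝐍(𝐙(Je p T)) := norms_center (norm_le_norm_Je T)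
  have hZT : 𝐙(Je p T) ≤ T := inf_le_left.trans (Je_le p T)
  obtain ⟨T', hT', h3⟩ := exists_sylowIn_ge (hQ.piGrp.inf_left 𝐍(T))
    (inf_le_inf hQ.le nZ)
  have h4 := ih _ T' (zj_ne_bot hT.piGrp fun e => h1 (le_bot_iff.1 (e ▸ hRT))) (hT.piGrp.of_le hZT)
    (hZT.trans hTM) hT' (by have := card_lt_of_lt' (h2.trans_le h3); omega)
  exact (h.norm_le_zj h5 h1 hR (hT.of_norm_le inf_le_right
    (le_inf (inf_le_right.trans (nZ.trans h4)) inf_le_left))).trans h4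

/-- A strongly `p`-embedded subgroup. -/
theorem exists_se (h5 : 5 ≤ p) (hP : SylowIn p P ⊤) (h1 : P ≠ ⊥) : ∃ M : Subgroup G, M ≠ ⊤ ∧ P ≤ M ∧
    ∀ R, R ≠ ⊥ → PiGrp {p} R → R ≤ M → 𝐍(R) ≤ M := by
  refine ⟨𝐍(𝐙(Je p P)), h.norm_ne_top (zj_ne_bot hP.piGrp h1)
    (h.ne_top (solvable_of_abelian (abelian_center _))),
    le_normalizer.trans (norms_center (norm_le_norm_Je P)), fun R hR1 hR hRM => ?_⟩
  obtain ⟨T, hT⟩ := exists_sylowIn p (𝐍(𝐙(Je p P)) ⊓ 𝐍(R))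
  exact h.se_aux h5 hP rfl (Nat.card P) R T hR1 hR hRM hT (by have := card_pos' T; omega)

end Hyp

section se
variable (hM : ∀ R, R ≠ ⊥ → PiGrp {p} R → R ≤ M → 𝐍(R) ≤ M)
include hM

theorem se_pgroup (hS : PiGrp {p} S) (h1 : S ⊓ M ≠ ⊥) : S ≤ M :=
  inf_eq_left.1 (eq_of_inf_normalizer_le (hS.isPGroup hp.out) inf_le_left
    (inf_le_inf_left _ (hM _ h1 (hS.inf_left M) inf_le_right)))

theorem se_cyclic (h2 : p ≠ 2) (hs : Group.IsSolvable H) (hH : ¬ H ≤ M) (hx : x ∈ H) (hxM : x ∈ M)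
    (h1 : x ≠ 1) (hx' : PiElt {p} x) : ∃ S, SylowIn p S H ∧ IsCyclic S := by
  obtain ⟨S, hS, hxS⟩ := exists_sylowIn_ge (piGrp_zpowers.2 hx') (zpowers_le.2 hx)
  have hxS' := hxS (mem_zpowers x)
  have hSM : S ≤ M := se_pgroup hM hS.piGrp (ne_bot_of_mem ⟨hxS', hxM⟩ h1)
  refine ⟨S, hS, by_contra fun hc => hH ?_⟩
  obtain ⟨E, hE, -⟩ := exists_normal_elem_two h2 (hS.isPGroup hp.out) hc
  have hEp := hE.isPGroup.piGrp hp.out
  have hO : piCoreOf {p}ᶜ H ≤ M := le_of_cent1_noncyclic hE.comm (hE.not_isCyclic le_rfl)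
    ((hE.le.trans hS.le).trans (piCoreOf_norm _ _)) ((piCoreOf_piGrp _ _).coprime' hEp)
    fun a ha ha1 => inf_le_right.trans ((cent_zpowers a).ge.trans ((centralizer_le_normalizer _).trans
      (hM _ (zpowers_ne_bot.2 ha1) (hEp.of_le (zpowers_le.2 ha)) (zpowers_le.2 (hSM (hE.le ha))))))
  have hT := hS.inf_core2 {p}ᶜ {p}
  have hT1 : S ⊓ core2 {p}ᶜ {p} H ≠ ⊥ := fun e =>
    center_ne_bot_pgroup (hS.isPGroup hp.out) (ne_bot_of_mem hxS' h1)
      (le_bot_iff.1 (e ▸ le_inf inf_le_left (center_le_core2 hs hS)))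
  rw [← frattini_arg (core2_normalIn _ _ H) hT]
  refine sup_le ?_ (inf_le_right.trans (hM _ hT1 hT.piGrp (inf_le_left.trans hSM)))
  rw [← hT.sdprod_core2.sup_eq]
  exact sup_le hO (inf_le_left.trans hSM)

theorem Hyp.se_cj (h : Hyp G) (h2 : p ≠ 2) (hg : g ∉ M) (hd : d ∈ M) (h1 : d ≠ 1) (hdp : d ^ p = 1)
    (ha : Elem p 1 a (zpowers g ⊔ zpowers d)) :
    ∃ k ∈ piCoreOf {p}ᶜ (zpowers g ⊔ zpowers d), a = cj k (zpowers d) := by
  have hdH : d ∈ zpowers g ⊔ zpowers d := mem_sup_right (mem_zpowers d)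
  obtain ⟨S, hS, hc⟩ := se_cyclic hM h2 (h.two g d) (fun e => hg (e (mem_sup_left (mem_zpowers g))))
    hdH hd h1 (piElt_of_pow_eq_one ((piNum_prime (π := {p}) hp.out).2 rfl) hdp)
  exact exists_cj_of_cyclic (h.two g d) hS hc (elem_one_zpowers hdH hdp h1) ha

theorem Hyp.se_exists_reg (h : Hyp G) (h2 : p ≠ 2) (hw : w ∉ M) (hwp : w ^ p = 1) (hd : d ∈ M)
    (h1 : d ≠ 1) (hdp : d ^ p = 1) : ∃ k : ℤ, PiElt {p}ᶜ (w * d ^ k) := by
  obtain ⟨k, hk, e⟩ := h.se_cj hM h2 hw hd h1 hdp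
    (elem_one_zpowers (mem_sup_left (mem_zpowers w)) hwp fun e => hw (e ▸ one_mem M))
  obtain ⟨_, ⟨j, rfl⟩, e'⟩ := mem_cj'.1 (e.le (mem_zpowers w))
  refine ⟨-j, (piCoreOf_piGrp _ _).piElt (A := piCoreOf {p}ᶜ (zpowers w ⊔ zpowers d)) ?_⟩
  have := mul_mem hk (conj_mem_of_mem_normalizer
    (piCoreOf_norm _ _ (mem_sup_right (zpow_mem (mem_zpowers d) j))) (inv_mem hk))
  convert this using 1
  rw [e']
  group

theorem Hyp.se_reg (h : Hyp G) (h2 : p ≠ 2) (hg : g ∉ M) (hd : d ∈ M) (hdp : d ^ p = 1)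
    (r1 : PiElt {p}ᶜ g) (r2 : PiElt {p}ᶜ (g * d)) (k : ℤ) : PiElt {p}ᶜ (g * d ^ k) := by
  by_cases h1 : d = 1
  · simpa [h1] using r1
  have hgH : g ∈ zpowers g ⊔ zpowers d := mem_sup_left (mem_zpowers g)
  have hdH : d ∈ zpowers g ⊔ zpowers d := mem_sup_right (mem_zpowers d)
  obtain ⟨l, hl, e⟩ := h.se_cj hM h2 hg hd h1 hdp
    (((elem_one_zpowers hdH hdp h1).cj g).of_le (cj_le_of_le le_sup_right hgH))
  set O := piCoreOf {p}ᶜ (zpowers g ⊔ zpowers d)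
  have ng : g ∈ 𝐍(O) := piCoreOf_norm _ _ hgH
  have nd : d ∈ 𝐍(O) := piCoreOf_norm _ _ hdH
  rw [← piElt_qel_iff (piCoreOf_piGrp _ _) (mul_mem ng (zpow_mem nd k)), pel_mul _ ng (zpow_mem nd k),
    pel_zpow _ nd]
  refine reg_of_norm (by rw [← pel_pow _ nd, hdp, pel_one]) ?_ (r1.qel O)
    (by rw [← pel_mul _ ng nd]; exact r2.qel O) k
  rw [mem_normalizer_iff_cj, ← quo_zpowers nd, ← quo_cj ng, e, quo_cj (le_normalizer hl), qel_eq_one hl,
    cj_one]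

end se

theorem Hyp.cyclic (h : Hyp G) (h5 : 5 ≤ p) (hP : SylowIn p P ⊤) : IsCyclic P := by
  by_contra hc
  have h2 : p ≠ 2 := by omega
  obtain ⟨A, hA, -⟩ := exists_normal_elem_two h2 (hP.isPGroup hp.out) hc
  obtain ⟨M, hM1, hPM, hM⟩ := h.exists_se h5 hP fun e => hc (e ▸ inferInstance)
  have hAM := hA.le.trans hPM
  obtain ⟨x, hx, hx1⟩ := exists_ne_one_mem' (hA.ne_bot two_pos)
  obtain ⟨g, hg⟩ : ∃ g, g * x * g⁻¹ ∉ M := by
    by_contra! hn
    haveI := h.simple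
    rcases (normalCore_normal M).eq_bot_or_eq_top with e | e
    · exact hx1 (mem_bot.1 (e.le hn))
    · exact hM1 (top_le_iff.1 (e.ge.trans (normalCore_le M)))
  set w := g * x * g⁻¹ with hw
  have hwp : w ^ p = 1 := by rw [hw, conj_pow, hA.elemAb.pow_eq hx, mul_one, mul_inv_cancel]
  have F0 : ¬ PiElt {p}ᶜ w := fun e => hg
    ((piElt_of_pow_eq_one ((piNum_prime (π := {p}) hp.out).2 rfl) hwp).eq_one e ▸ one_mem M)
  have F1 : ∀ d ∈ A, d ≠ 1 → ∃ k : ℤ, PiElt {p}ᶜ (w * d ^ k) := fun d hd h1 =>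
    h.se_exists_reg hM h2 hg hwp (hAM hd) h1 (hA.elemAb.pow_eq hd)
  have F2 : ∀ s ∈ A, ∀ t ∈ A, PiElt {p}ᶜ (w * s) → PiElt {p}ᶜ (w * t) →
      ∀ k : ℤ, PiElt {p}ᶜ (w * (s * (s⁻¹ * t) ^ k)) := fun s hs t ht r1 r2 k => by
    have hd := mul_mem (inv_mem hs) ht
    rw [← mul_assoc]
    exact h.se_reg hM h2 (fun e => hg (by simpa using mul_mem e (inv_mem (hAM hs)))) (hAM hd)
      (hA.elemAb.pow_eq hd) r1 (by simpa [mul_assoc] using r2) k
  obtain ⟨y, hy, hyx⟩ : ∃ y ∈ A, y ∉ zpowers x := by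
    by_contra! hn
    exact hA.not_isCyclic le_rfl (isCyclic_iff_exists_zpowers.2 ⟨x, hx, le_antisymm hn (zpowers_le.2 hx)⟩)
  have hy1 : y ≠ 1 := fun e => hyx (e ▸ one_mem _)
  obtain ⟨i, hi⟩ := F1 x hx hx1
  obtain ⟨j, hj⟩ := F1 y hy hy1
  have hs := zpow_mem hx i
  have ht := zpow_mem hy j
  have hst : (x ^ i)⁻¹ * y ^ j ≠ 1 := fun e => by
    have h3 : y ^ j ≠ 1 := fun e' => F0 (by simpa [e'] using hj)
    have h4 := eq_zpowers_of_prime_card
      (by rw [Nat.card_zpowers, hA.elemAb.orderOf_eq hy hy1]; exact hp.out) (zpow_mem (mem_zpowers y) j) h3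
    rw [← inv_mul_eq_one.1 e] at h4
    exact hyx (zpowers_le.2 (zpow_mem (mem_zpowers x) i) (h4.le (mem_zpowers y)))
  generalize x ^ i = s at hs hi hst
  generalize y ^ j = t at ht hj hst
  have hcA := mul_mem (inv_mem hs) ht
  obtain ⟨m, hm⟩ := F1 _ hcA hst
  have h3 := F2 s hs t ht hi hj (2 * m)
  generalize s⁻¹ * t = c at hcA hm h3
  have h4 := F2 _ (zpow_mem hcA m) _ (mul_mem hs (zpow_mem hcA _)) hm h3 (-1)
  have h6 : c ^ m * ((c ^ m)⁻¹ * (s * c ^ (2 * m))) ^ (-1 : ℤ) = s⁻¹ := by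
    rw [← mul_assoc, hA.elemAb.mul_comm (inv_mem (zpow_mem hcA m)) hs,
      hA.elemAb.mul_comm (zpow_mem hcA m) (zpow_mem (mul_mem (mul_mem hs (inv_mem (zpow_mem hcA m)))
        (zpow_mem hcA _)) _), mul_assoc s, hA.elemAb.mul_comm hs
          (mul_mem (inv_mem (zpow_mem hcA m)) (zpow_mem hcA _))]
    group
  rw [h6] at h4
  obtain ⟨k, hk⟩ := hp.out.odd_of_ne_two h2
  have h7 := F2 _ (inv_mem hs) s hs h4 hi (k + 1)
  have h8 : s⁻¹ * (s⁻¹⁻¹ * s) ^ (k + 1 : ℤ) = s ^ p := by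
    rw [hk, inv_inv, ← sq, ← zpow_natCast, ← zpow_natCast, ← zpow_mul]
    push_cast
    group
  rw [h8, hA.elemAb.pow_eq hs, mul_one] at h7
  exact F0 h7

end CA.Fla
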