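/-
A finite group in which every two elements generate a solvable subgroup is solvable.
-/
import Cfsg.Agent.Lib.Fla.Core

set_option autoImplicit false
set_option linter.unusedSectionVars false
set_option linter.style.haveILetI false
set_option linter.unusedVariables false

universe u

namespace CA.Fla

open Cfsg Subgroup CA CA.Loc

variable {G : Type*} [Group G] [Finite G] {p : ℕ} [hp : Fact p.Prime]
  {A B H K K₁ K₂ L M P R S T X a b c : Subgroup G} {x y z g n : G}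

/-- `K` is an `a`-invariant `p'`-subgroup. -/
def Iv (p : ℕ) (a K : Subgroup G) : Prop := PiGrp {p}ᶜ K ∧ a ≤ 𝐍(K)

/-- `K` is a nontrivial maximal `a`-invariant `p'`-subgroup. -/
def Mx (p : ℕ) (a K : Subgroup G) : Prop := Iv p a K ∧ K ≠ ⊥ ∧ ∀ L, Iv p a L → K ≤ L → L = K

theorem Iv.cj (h : Iv p a K) (g : G) : Iv p (cj g a) (cj g K) :=
  ⟨h.1.cj g, by rw [← cj_normalizer]; exact cj_mono _ h.2⟩

theorem Mx.cj (h : Mx p a K) (g : G) : Mx p (cj g a) (cj g K) :=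
  ⟨h.1.cj g, by simpa using h.2.1, fun L hL hle => by
    have := h.2.2 (CA.cj g⁻¹ L) (by simpa using hL.cj g⁻¹) (cj_le_iff.1 hle)
    rw [← this]
    simp⟩

theorem iv_core (ha : a ≤ H) : Iv p a (piCoreOf {p}ᶜ H) :=
  ⟨piCoreOf_piGrp _ _, ha.trans (piCoreOf_norm _ _)⟩

theorem Iv.exists_mx (h : Iv p a L) (h1 : L ≠ ⊥) : ∃ K, Mx p a K ∧ L ≤ K := by
  obtain ⟨K, h2, h3, h4⟩ := exists_maximal_ge (Iv p a) h
  exact ⟨K, ⟨h3, fun e => h1 (le_bot_iff.1 (e ▸ h2)), h4⟩, h2⟩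

theorem Mx.core (h : Mx p a K) : piCoreOf {p}ᶜ 𝐍(K) = K :=
  h.2.2 _ (iv_core h.1.2) (le_piCoreOf (normalIn_normalizer K) h.1.1)

theorem pt_prime (ha : Elem p 1 a ⊤) : (Nat.card a).Prime := by
  rw [ha.card, pow_one]; exact hp.out

theorem pt_pi (ha : Elem p 1 a ⊤) : PiGrp {p} a := ha.isPGroup.piGrp hp.out

namespace Hyp

variable (h : Hyp G) (h5 : 5 ≤ p)
include h h5

theorem cyc (hS : SylowIn p S H) : IsCyclic S := by
  obtain ⟨P, hP, hle⟩ := exists_sylowIn_ge hS.piGrp (le_top (a := S))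
  haveI := h.cyclic h5 hP
  exact isCyclic_of_le hle

theorem cjO (hH : H ≠ ⊤) (ha : Elem p 1 a ⊤) (hb : Elem p 1 b ⊤) (h1 : a ≤ H) (h2 : b ≤ H) :
    ∃ k ∈ piCoreOf {p}ᶜ H, b = cj k a := by
  obtain ⟨S, hS⟩ := exists_sylowIn p H
  exact exists_cj_of_cyclic (h.prop H hH) hS (h.cyc h5 hS) (ha.of_le h1) (hb.of_le h2)

theorem cent_p (ha : Elem p 1 a ⊤) : PiGrp {p} 𝐂(a) := by
  have hs := h.norm_sol (ha.ne_bot one_pos) (pt_pi ha).solvable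
  have hO := h.core_norm (ha.ne_bot one_pos) (pt_pi ha)
  have hQ := piCoreOf_piGrp {p} 𝐍(a)
  obtain ⟨S, hS⟩ := exists_sylowIn p 𝐍(a)
  haveI := h.cyc h5 hS
  have hc : IsCyclic (piCoreOf {p} 𝐍(a)) := isCyclic_of_le hS.piCoreOf_le
  have h1 := (ha.of_le (le_piCoreOf (normalIn_normalizer a) (pt_pi ha))).eq_omega1_of_isCyclic hc
  refine (isPGroup_of_forall_piElt fun u hu hu' => ?_).piGrp hp.out
  have hn := centralizer_le_normalizer _ hu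
  have h2 := (copAct_zpowers_of_piElt (hQ.isPGroup hp.out) (piCoreOf_norm _ _ hn) hu').cents_of_omega1
    (by omega) (hQ.isPGroup hp.out) (by rw [← h1]; exact zpowers_le.2 hu)
  exact (hQ.piElt (cent_piCoreOf_le hs hO ⟨hn, h2 (mem_zpowers u)⟩)).eq_one hu'

theorem inf_cent (ha : Elem p 1 a ⊤) (hK : PiGrp {p}ᶜ K) : K ⊓ 𝐂(a) = ⊥ :=
  hK.inf_eq_bot' (h.cent_p h5 ha)

theorem inf_norm (ha : Elem p 1 a ⊤) (hK : Iv p a K) : K ⊓ 𝐍(a) = ⊥ := by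
  rw [(copAct_p_right hK.2 hK.1 (pt_pi ha)).inf_norm_eq, h.inf_cent h5 ha hK.1]

theorem nil (ha : Elem p 1 a ⊤) (hK : Iv p a K) : Group.IsNilpotent K := by
  have h1 := h.inf_cent h5 ha hK.1
  obtain ⟨x, -, hx1, hxp, rfl⟩ := ha.exists_zpowers
  rw [cent_zpowers] at h1
  exact nilpotent_of_fpf_prime (zpowers_le.1 hK.2) (by rw [orderOf_eq_prime hxp hx1]; exact hp.out) h1

theorem le_core (hH : H ≠ ⊤) (ha : Elem p 1 a ⊤) (haH : a ≤ H) (hL : Iv p a L) (hLH : L ≤ H) :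
    L ≤ piCoreOf {p}ᶜ H := by
  have nO : a ≤ 𝐍(piCoreOf {p}ᶜ H) := haH.trans (piCoreOf_norm _ _)
  refine (hall_of_sup_left (Or.inl nO) (piCoreOf_piGrp _ _) (by rw [compl_compl]; exact pt_pi ha)).le_of_normal
    (sup_le le_normalizer nO) ?_ hL.1
  rw [← (copAct_p_right hL.2 hL.1 (pt_pi ha)).comm_eq_self_of_cent_eq_bot (h.inf_cent h5 ha hL.1),
    comm_le_iff]
  intro l hl u hu
  obtain ⟨k, hk, e⟩ := h.cjO h5 hH ha ((ha.cj l).of_le le_top) haH (cj_le_of_le haH (hLH hl))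
  exact mul_mem (cj_le_of_le le_sup_right (mem_sup_left hk) (e.le (mem_cj'.2 ⟨u, hu, rfl⟩)))
    (inv_mem (mem_sup_right hu))

theorem ti_aux (ha : Elem p 1 a ⊤) (n : ℕ) : ∀ K₁ K₂ : Subgroup G, Mx p a K₁ → Mx p a K₂ →
    K₁ ⊓ K₂ ≠ ⊥ → Nat.card G < Nat.card ↥(K₁ ⊓ K₂) + n → K₁ = K₂ := by
  induction n with
  | zero => intro K₁ K₂ _ _ _ hc; exact absurd (card_le_card_group (K₁ ⊓ K₂)) (by omega)
  | succ n ih =>
  intro K₁ K₂ h1 h2 hD hc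
  by_contra hne
  have nD : a ≤ 𝐍(K₁ ⊓ K₂) := norms_inf h1.1.2 h2.1.2
  have hN : 𝐍(K₁ ⊓ K₂) ≠ ⊤ := h.ne_top (h.norm_sol hD
    (solvable_of_le (solvable_of_nilpotent (h.nil h5 ha h1.1)) inf_le_left))
  obtain ⟨K, hK, hle⟩ := (iv_core (p := p) nD).exists_mx
    (piCoreOf_ne_bot (normalIn_normalizer _) (h1.1.1.inf_left K₂) hD)
  have key : ∀ L, Mx p a L → K₁ ⊓ K₂ < L → L = K := fun L hL hlt => by
    have h3 := lt_inf_norm_of_nilpotent (h.nil h5 ha hL.1) hlt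
    have h4 := h3.trans_le (le_inf inf_le_left ((h.le_core h5 hN ha nD
      ⟨hL.1.1.inf_left _, norms_inf hL.1.2 (norms_norm nD)⟩ inf_le_right).trans hle))
    exact ih L K hL hK (h4.ne_bot) (by have := card_lt_of_lt' h4; omega)
  refine hne ((key K₁ h1 (lt_of_le_of_ne inf_le_left fun e => ?_)).trans
    (key K₂ h2 (lt_of_le_of_ne inf_le_right fun e => ?_)).symm)
  · exact hne (h1.2.2 _ h2.1 (inf_eq_left.1 e)).symm
  · exact hne (h2.2.2 _ h1.1 (inf_eq_right.1 e))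

theorem ti (ha : Elem p 1 a ⊤) (h1 : Mx p a K₁) (h2 : Mx p a K₂) (hD : K₁ ⊓ K₂ ≠ ⊥) : K₁ = K₂ :=
  h.ti_aux h5 ha (Nat.card G) K₁ K₂ h1 h2 hD (by have := card_pos' (K₁ ⊓ K₂); omega)

theorem mx_norm_ne (ha : Elem p 1 a ⊤) (hK : Mx p a K) : 𝐍(K) ≠ ⊤ :=
  h.ne_top (h.norm_sol hK.2.1 (solvable_of_nilpotent (h.nil h5 ha hK.1)))

theorem mx_of_norm (ha : Elem p 1 a ⊤) (hb : Elem p 1 b ⊤) (hK : Mx p a K) (hn : b ≤ 𝐍(K)) :
    Mx p b K := by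
  obtain ⟨k, hk, rfl⟩ := h.cjO h5 (h.mx_norm_ne h5 ha hK) ha hb hK.1.2 hn
  rw [hK.core] at hk
  simpa [cj_eq_of_mem hk] using hK.cj k

omit h5 in
theorem sup_ne_top (ha : Elem p 1 a ⊤) (g : G) : zpowers g ⊔ a ≠ ⊤ := by
  obtain ⟨x, -, -, -, rfl⟩ := ha.exists_zpowers
  exact h.ne_top (h.two g x)

theorem core_ne_bot (ha : Elem p 1 a ⊤) (hb : Elem p 1 b ⊤) (hne : a ≠ b) :
    piCoreOf {p}ᶜ (b ⊔ a) ≠ ⊥ ∧ ∃ k ∈ piCoreOf {p}ᶜ (b ⊔ a), b = cj k a := by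
  obtain ⟨k, hk, e⟩ := h.cjO h5 (H := b ⊔ a) (by
    obtain ⟨x, -, -, -, rfl⟩ := hb.exists_zpowers
    exact h.sup_ne_top ha x) ha hb le_sup_right le_sup_left
  refine ⟨fun e' => hne ?_, k, hk, e⟩
  rw [e', mem_bot] at hk
  rw [e, hk, cj_one]

theorem uniq (ha : Elem p 1 a ⊤) (hb : Elem p 1 b ⊤) (hne : a ≠ b) (h1 : Mx p a K₁) (h2 : Mx p a K₂)
    (n1 : b ≤ 𝐍(K₁)) (n2 : b ≤ 𝐍(K₂)) : K₁ = K₂ := by
  have key : ∀ K, Mx p a K → b ≤ 𝐍(K) → piCoreOf {p}ᶜ (b ⊔ a) ≤ K := fun K hK hn =>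
    (h.le_core h5 (h.mx_norm_ne h5 ha hK) ha hK.1.2 (iv_core le_sup_right)
      ((piCoreOf_le _ _).trans (sup_le hn hK.1.2))).trans hK.core.le
  exact h.ti h5 ha h1 h2 fun e => (h.core_ne_bot h5 ha hb hne).1
    (le_bot_iff.1 (e ▸ le_inf (key _ h1 n1) (key _ h2 n2)))

theorem exists_line (ha : Elem p 1 a ⊤) (hb : Elem p 1 b ⊤) (hne : a ≠ b) :
    ∃ K, Mx p a K ∧ b ≤ 𝐍(K) := by
  obtain ⟨h1, k, hk, e⟩ := h.core_ne_bot h5 ha hb hne
  obtain ⟨K, hK, hle⟩ := (iv_core (p := p) (le_sup_right : a ≤ b ⊔ a)).exists_mx h1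
  exact ⟨K, hK, e ▸ cj_le_of_le hK.1.2 (le_normalizer (hle hk))⟩

theorem exists_fix (ha : Elem p 1 a ⊤) (hg : g ∉ 𝐍(a)) : ∃ K, Mx p a K ∧ g ∈ 𝐍(K) := by
  have hgH : g ∈ zpowers g ⊔ a := mem_sup_left (mem_zpowers g)
  obtain ⟨k, hk, e⟩ := h.cjO h5 (h.sup_ne_top ha g) ha ((ha.cj g).of_le le_top) le_sup_right
    (cj_le_of_le le_sup_right hgH)
  have h1 : piCoreOf {p}ᶜ (zpowers g ⊔ a) ≠ ⊥ := fun e' => hg (by
    rw [e', mem_bot] at hk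
    rw [mem_normalizer_iff_cj, e, hk, cj_one])
  obtain ⟨K, hK, hle⟩ := (iv_core (p := p) (le_sup_right : a ≤ zpowers g ⊔ a)).exists_mx h1
  refine ⟨K, hK, ?_⟩
  have h2 := hK.cj (k⁻¹ * g)
  rw [cj_mul k⁻¹ g a, e, cj_cj, inv_mul_cancel, cj_one] at h2
  have h3 := h.ti h5 ha h2 hK fun e' => h1 (le_bot_iff.1 (e' ▸ le_inf ?_ hle))
  · simpa using mul_mem (le_normalizer (hle hk)) (mem_normalizer_iff_cj.2 h3)
  · rw [← cj_eq_of_mem_normalizer (piCoreOf_norm {p}ᶜ _ (mul_mem (inv_mem (piCoreOf_le _ _ hk)) hgH))]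
    exact cj_mono _ hle

theorem cj_ne (ha : Elem p 1 a ⊤) (hK : Iv p a K) (hx : x ∈ K) (h1 : x ≠ 1) : a ≠ cj x a := fun e =>
  h1 (mem_bot.1 ((h.inf_norm h5 ha hK).le ⟨hx, mem_normalizer_iff_cj.2 e.symm⟩))

theorem norm_le (ha : Elem p 1 a ⊤) (hK : Mx p a K) : 𝐍(a) ≤ 𝐍(K) := fun n hn => by
  obtain ⟨k, hk, hk1⟩ := exists_ne_one_mem' hK.2.1
  have h1 := h.cj_ne h5 ha hK.1 hk hk1
  have e : cj (k * n) a = cj k a := by rw [cj_mul, cj_eq_of_mem_normalizer hn]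
  obtain ⟨L, hL, hn'⟩ := h.exists_fix h5 ha (g := k * n) fun e' =>
    h1 ((cj_eq_of_mem_normalizer e').symm.trans e)
  have := h.uniq h5 ha ((ha.cj k).of_le le_top) h1 hK hL (cj_le_of_le hK.1.2 (le_normalizer hk))
    (e ▸ cj_le_of_le hL.1.2 hn')
  subst this
  simpa using mul_mem (inv_mem (le_normalizer hk)) hn'

theorem inf_cent1_ne_bot (ha : Elem p 1 a ⊤) (hK : Mx p a K) (hy : y ∈ 𝐍(a)) (hc : y ∉ 𝐂(a))
    (ho : (orderOf y).Prime) : K ⊓ 𝐂[y] ≠ ⊥ := fun e => by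
  have nK := h.norm_le h5 ha hK hy
  have h1 := sup_inf_cent_of_disjoint (hK.1.1.inf_eq_bot' (pt_pi ha)) (zpowers_le.2 nK)
    (zpowers_le.2 hy) (Or.inl hK.1.2)
  rw [cent_zpowers, e, inf_eq_bot_of_prime_card (pt_prime ha) fun e' => hc (mem_cent_iff_le_cent1.2 e'),
    bot_sup_eq] at h1
  have h2 := nilpotent_of_fpf_prime (zpowers_le.1 (norms_sup (zpowers_le.2 nK) (zpowers_le.2 hy))) ho h1
  have h3 := cents_of_nilpotent_of_coprime h2 le_sup_left le_sup_right (hK.1.1.coprime' (pt_pi ha))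
  exact hK.2.1 ((inf_eq_left.2 h3).symm.trans (h.inf_cent h5 ha hK.1.1))

theorem exists_y (ha : Elem p 1 a ⊤) : ∃ y ∈ 𝐍(a), y ∉ 𝐂(a) ∧ (orderOf y).Prime := by
  obtain ⟨P, hP, hle⟩ := exists_sylowIn_ge (pt_pi ha) (le_top (a := a))
  have hc := h.cyc h5 hP
  have h1 : ¬ PiGrp {p} 𝐍(P) := fun e => by
    have h2 := hP.normalPCompl_of_cent (inf_le_right.trans ((hP.le_of_norm' e le_top le_rfl).trans
      (abelian_iff.1 (abelian_of_cyclic hc))))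
    haveI := h.simple
    rcases (normal_of_top_le_norm (piCoreOf_norm {p}ᶜ (⊤ : Subgroup G))).eq_bot_or_eq_top with e' | e'
    · have h3 := h2.piNum
      rw [e', relIndex_bot_left] at h3
      exact h.nsol (solvable_top_iff.1 (PiGrp.solvable h3))
    · exact ha.ne_bot one_pos ((pt_pi ha).eq_bot ((piCoreOf_piGrp _ _).of_le (le_top.trans e'.ge)))
  obtain ⟨y, hy, ho, hp'⟩ : ∃ y ∈ 𝐍(P), (orderOf y).Prime ∧ orderOf y ∉ ({p} : Set ℕ) := by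
    by_contra! hn
    exact h1 (piGrp_of_forall_prime_order hn)
  exact ⟨y, norms_of_cyclic hc hle le_rfl hy, fun e =>
    hp' ((piElt_of_orderOf_prime ho rfl).1 ((h.cent_p h5 ha).piElt e)), ho⟩

theorem false_of (ha : Elem p 1 a ⊤) : False := by
  obtain ⟨y, hy, hc, ho⟩ := h.exists_y h5 ha
  obtain ⟨K₁, h1, -⟩ : ∃ K, Mx p a K ∧ True := by
    obtain ⟨g, hg⟩ : ∃ g, g ∉ 𝐍(a) := by
      by_contra! hn
      exact h.norm_ne_top (ha.ne_bot one_pos) (h.ne_top (pt_pi ha).solvable) (top_le_iff.1 fun g _ => hn g)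
    obtain ⟨K, hK, -⟩ := h.exists_fix h5 ha hg
    exact ⟨K, hK, trivial⟩
  obtain ⟨K₂, h2, hne⟩ : ∃ K, Mx p a K ∧ K ≠ K₁ := by
    by_contra! hn
    refine h.mx_norm_ne h5 ha h1 (top_le_iff.1 fun g _ => ?_)
    by_cases hg : g ∈ 𝐍(a)
    · exact h.norm_le h5 ha h1 hg
    · obtain ⟨K, hK, hg'⟩ := h.exists_fix h5 ha hg
      exact hn K hK ▸ hg'
  obtain ⟨s, hs, hs1⟩ := exists_ne_one_mem' (h.inf_cent1_ne_bot h5 ha h1 hy hc ho)
  have hb : Elem p 1 (cj s a) ⊤ := (ha.cj s).of_le le_top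
  have hab := h.cj_ne h5 ha h1.1 hs.1 hs1
  have hyb : y ∈ 𝐍(cj s a) := by
    rw [← cj_normalizer, mem_cj, mul_assoc, ← mem_cent1_iff.1 hs.2, inv_mul_cancel_left]
    exact hy
  have hb2 : ¬ cj s a ≤ 𝐍(K₂) := fun e =>
    hne (h.uniq h5 ha hb hab h2 h1 e (cj_le_of_le h1.1.2 (le_normalizer hs.1)))
  have y2 := h.norm_le h5 ha h2 hy
  have key : K₂ ≤ 𝐂[y] := fun u hu => by
    have hc' : Elem p 1 (cj u a) ⊤ := (ha.cj u).of_le le_top
    have c2 : cj u a ≤ 𝐍(K₂) := cj_le_of_le h2.1.2 (le_normalizer hu)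
    obtain ⟨K₃, h3, c3⟩ := h.exists_line h5 hb hc' fun e => hb2 (e ▸ c2)
    have y3 := h.norm_le h5 hb h3 hyb
    have h4 : cj u a = cj y (cj u a) := by
      by_contra e
      exact hb2 (h.uniq h5 hc' ((hc'.cj y).of_le le_top) e (h.mx_of_norm h5 hb hc' h3 c3)
        (h.mx_of_norm h5 ha hc' h2 c2) (cj_le_of_le c3 y3) (cj_le_of_le c2 y2) ▸ h3.1.2)
    have h6 : u⁻¹ * y * u ∈ 𝐍(a) := by
      rw [mem_normalizer_iff_cj, cj_mul, cj_mul, ← h4, cj_cj, inv_mul_cancel, cj_one]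
    have h7 : u⁻¹ * (y * u * y⁻¹) ∈ K₂ ⊓ 𝐍(a) :=
      mem_inf.2 ⟨mul_mem (inv_mem hu) (conj_mem_of_mem_normalizer y2 hu), by
        simpa [mul_assoc] using mul_mem h6 (inv_mem hy)⟩
    rw [h.inf_norm h5 ha h2.1, mem_bot, inv_mul_eq_one] at h7
    exact mem_cent1_iff.2 (eq_mul_inv_iff_mul_eq.1 h7)
  have h8 : ⁅a, zpowers y⁆ ≤ a ⊓ 𝐂(K₂) := le_inf (comm_le_left (zpowers_le.2 hy))
    (comm_cents_of_cents h2.1.2 (zpowers_le.2 (mem_cent_iff_le_cent1.2 key)))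
  have h9 := le_of_prime_card_of_inf_ne_bot (pt_prime ha) (B := 𝐂(K₂)) fun e =>
    hc (zpowers_le.1 (comm_eq_bot_iff'.1 (le_bot_iff.1 (e ▸ h8))))
  exact h2.2.1 ((inf_eq_left.2 (cents_symm h9)).symm.trans (h.inf_cent h5 ha h2.1.1))

end Hyp

theorem Hyp.false (h : Hyp G) : False := by
  obtain ⟨p, hp, h5, hd⟩ := h.exists_prime
  haveI := Fact.mk hp
  obtain ⟨a, ha⟩ := exists_elem_one_of_dvd (p := p) (H := (⊤ : Subgroup G)) (by rwa [card_top])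
  exact h.false_of h5 ha

theorem solvable_aux (n : ℕ) : ∀ (G : Type u) [Group G] [Finite G], Nat.card G < n →
    (∀ a b : G, Group.IsSolvable ↥(zpowers a ⊔ zpowers b)) → Group.IsSolvable G := by
  induction n with
  | zero => intro G _ _ h; omega
  | succ n ih =>
  intro G _ _ hc h2
  by_contra hn
  have hp : ∀ H : Subgroup G, H ≠ ⊤ → Group.IsSolvable H := fun H hH =>
    ih H (by have := card_lt_of_lt' (lt_top_iff_ne_top.2 hH); rw [card_top] at this; omega) fun a b => by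
      rw [solvable_congr (equivMapOfInjective _ _ H.subtype_injective), Subgroup.map_sup,
        MonoidHom.map_zpowers, MonoidHom.map_zpowers]
      exact h2 _ _
  haveI : Nontrivial G := not_subsingleton_iff_nontrivial.1 fun _ => hn inferInstance
  refine Hyp.false ⟨⟨fun N hN => ?_⟩, hn, h2, hp⟩
  by_contra! hN'
  refine hn ((Group.isSolvable_iff_subgroup_quotient N).2 ⟨hp N hN'.2, ih (G ⧸ N) ?_ fun a b => ?_⟩)
  · have h3 := card_eq_card_quotient_mul_card_subgroup N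
    have h4 := one_lt_card_iff_ne_bot'.2 hN'.1
    have h5 : 0 < Nat.card (G ⧸ N) := Nat.card_pos
    nlinarith
  · obtain ⟨a, rfl⟩ := QuotientGroup.mk'_surjective N a
    obtain ⟨b, rfl⟩ := QuotientGroup.mk'_surjective N b
    rw [← MonoidHom.map_zpowers, ← MonoidHom.map_zpowers, ← Subgroup.map_sup]
    haveI := h2 a b
    exact Group.isSolvable_of_surjective ((QuotientGroup.mk' N).subgroupMap_surjective _)

theorem solvable_of_two {G : Type*} [Group G] [Finite G]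
    (h : ∀ a b : G, Group.IsSolvable (closure ({a, b} : Set G))) : Group.IsSolvable G :=
  solvable_aux _ G (Nat.lt_succ_self _) fun a b => closure_pair_eq a b ▸ h a b

end CA.Fla
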